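import Cfsg.Agent.H7.QdMain

set_option autoImplicit false

/-!
Sections isomorphic to `SL₂(p)`.
-/

namespace CfsgH7

open Subgroup Cfsg
open scoped commutatorElement

universe u

variable {p : ℕ} [hp : Fact p.Prime]

theorem section_of_map {G : Type*} [Group G] {S : Type*} [Group S] {K : Subgroup G} (f : ↥K →* S) (hf : Function.Surjective f) :
    ∃ (L : Subgroup G) (_ : (L.subgroupOf K).Normal), Nonempty ((↥K ⧸ L.subgroupOf K) ≃* S) := by
  have h1 : (f.ker.map K.subtype).subgroupOf K = f.ker := by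
    rw [Subgroup.subgroupOf, Subgroup.comap_map_eq_self_of_injective K.subtype_injective]
  have h2 : ((f.ker.map K.subtype).subgroupOf K).Normal := by rw [h1]; exact f.normal_ker
  exact ⟨f.ker.map K.subtype, h2, ⟨(QuotientGroup.quotientMulEquivOfEq h1).trans (QuotientGroup.quotientKerEquivOfSurjective f hf)⟩⟩

/-- S0656 -/
theorem sl2_section_of_faithful (hp2 : p ≠ 2) {G : Type*} [Group G] [hG : Finite G] {V H : Subgroup G} (hV : IsPGroup p ↥V)
    (hHV : H ≤ Subgroup.normalizer (V : Set G)) (hf : H ⊓ Subgroup.centralizer (V : Set G) = ⊥) (hO : pCore p ↥H = ⊥)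
    {x : G} (hxH : x ∈ H) (hx1 : x ≠ 1) (hq : ⁅⁅V, Subgroup.zpowers x⁆, Subgroup.zpowers x⁆ = ⊥) :
    ∃ (K L : Subgroup G) (_ : (L.subgroupOf K).Normal), K ≤ H ∧
      Nonempty ((↥K ⧸ L.subgroupOf K) ≃* Matrix.SpecialLinearGroup (Fin 2) (ZMod p)) := by
  obtain ⟨-, K, hK, f, hf'⟩ := quad_main hp2 hV hHV hxH hq (by
    intro M hM _ hMp hxM
    have h1 : IsPGroup p ↥M := by
      apply CfsgH3.isPGroup_of_forall_coprime
      intro m hmp
      have h2 := hMp m m.2 (by rwa [Subgroup.orderOf_coe])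
      have h3 : ((m : ↥H) : G) ∈ H ⊓ Subgroup.centralizer (V : Set G) := Subgroup.mem_inf.mpr ⟨(m : ↥H).2, h2⟩
      rw [hf, Subgroup.mem_bot] at h3
      exact Subtype.ext (Subtype.ext h3)
    have h2 := CfsgH2.le_pCore hM h1 hxM
    rw [hO, Subgroup.mem_bot] at h2
    exact hx1 (congrArg Subtype.val h2))
  obtain ⟨L, hL, h⟩ := section_of_map f hf'
  exact ⟨K, L, hL, hK, h⟩

/-- S0657 -/
theorem sl2_section_of_not_pstable (hp2 : p ≠ 2) {G : Type*} [Group G] [hG : Finite G] (hO : pPrimeCore p G < pPrimePCore p G)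
    (hns : haveI := pPrimeCore_normal' p G; ¬ IsPStable p (G ⧸ pPrimeCore p G)) :
    ∃ (K L : Subgroup G) (_ : (L.subgroupOf K).Normal), K ≤ ⊤ ∧
      Nonempty ((↥K ⧸ L.subgroupOf K) ≃* Matrix.SpecialLinearGroup (Fin 2) (ZMod p)) := by
  have hn := pPrimeCore_normal' p G
  have hodd : Odd p := hp.out.odd_of_ne_two hp2
  have hcore : pCore p (G ⧸ pPrimeCore p G) ≠ ⊥ := by
    intro h
    apply absurd hO
    unfold pPrimePCore
    rw [h]
    intro h2
    have h3 : (⊥ : Subgroup (G ⧸ pPrimeCore p G)).comap (QuotientGroup.mk' (pPrimeCore p G)) = pPrimeCore p G :=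
      QuotientGroup.ker_mk' _
    rw [h3] at h2
    exact lt_irrefl _ h2
  unfold IsPStable at hns
  push Not at hns
  obtain ⟨A, P, hA, hP, hAP, -, -, hq, hnot⟩ := hns hodd hcore
  rw [SetLike.not_le_iff_exists] at hnot
  obtain ⟨_, ⟨a, ha, rfl⟩, haO⟩ := hnot
  have haA : (a : G ⧸ pPrimeCore p G) ∈ A := ha
  have hqa : ⁅⁅P, Subgroup.zpowers (a : G ⧸ pPrimeCore p G)⁆, Subgroup.zpowers (a : G ⧸ pPrimeCore p G)⁆ = ⊥ := by
    rw [eq_bot_iff, ← hq]
    have h1 : Subgroup.zpowers (a : G ⧸ pPrimeCore p G) ≤ A := Subgroup.zpowers_le.mpr haA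
    exact Subgroup.commutator_mono (Subgroup.commutator_mono le_rfl h1) h1
  obtain ⟨-, K, -, f, hf⟩ := qd_of_quad hp2 hP a.2 hqa haO
  have h2 : Involves (Matrix.SpecialLinearGroup (Fin 2) (ZMod p)) G :=
    Involves.trans' (involves_iff.mpr ⟨K, f, hf⟩) (involves_quotient _)
  obtain ⟨K', L', hL', h⟩ := h2
  exact ⟨K', L', hL', le_top, h⟩

end CfsgH7
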